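import Mathlib
import Cfsg.Agent.Lib.Helper81.FCZ.Defs

/-!
# Project FCZ: assembly of S3359 and S4291 from the packages

Every package is a hypothesis; nothing here depends on a package being landed.
-/

set_option autoImplicit false

namespace Cfsg.Agent.Lib.Helper81.FCZ

universe u

/-- The common non-solvable analysis: `S`, `ψ` and the facts about `C = C_G(S) = ker ψ`. -/
theorem nonsolv_core (hub : HubZ)
    (hFInv : PkgFInv.{u}) (hFComm : PkgFComm.{u}) (hFPerf : PkgFPerf.{u})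
    (hSLA5 : PkgSLA5) (hSLCen : PkgSLCen) (hSLOrd : PkgSLOrd)
    (hRes : PkgRes.{u}) (hPsi : PkgPsi.{u}) (hCen : PkgCen.{u}) (hCop : PkgCop.{u})
    {G : Type u} [Group G] [Finite G] (hns : ¬ Group.IsSolvable G) (hFC : IsFC G) :
    ∃ (S : Subgroup G) (ψ : G →* Equiv.Perm (Fin 5)), S.Normal ∧ Nonempty (S ≃* Gam) ∧
      ψ.ker = Subgroup.centralizer (S : Set G) ∧ S.map ψ = alternatingGroup (Fin 5) ∧
      Nat.card ↥(S ⊓ ψ.ker) = 2 ∧ (Nat.card ↥ψ.ker).Coprime 15 ∧ ¬ 4 ∣ Nat.card ↥ψ.ker := by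
  obtain ⟨S, hSn, hS1, hSp⟩ := hRes hns
  obtain ⟨e⟩ := hFPerf hub hFC S hS1 hSp
  obtain ⟨ψ, hker, himg⟩ := hPsi hSLA5 S hSn hSp ⟨e⟩
  have hcen := hCen hSLCen S ⟨e⟩
  obtain ⟨hcop, h4⟩ := hCop hSLOrd S (hFInv hFC) (hFComm hFC) ⟨e⟩ hcen
  refine ⟨S, ψ, hSn, ⟨e⟩, hker, himg, ?_, ?_, ?_⟩
  · rw [hker]; exact hcen
  · rw [hker]; exact hcop
  · rw [hker]; exact h4

/-- **S3359** from the packages. -/
theorem s3359_of (hub : HubZ)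
    (hFSyl : PkgFSyl.{u}) (hFInv : PkgFInv.{u}) (hFComm : PkgFComm.{u}) (hFPerf : PkgFPerf.{u})
    (hSLA5 : PkgSLA5) (hSLCen : PkgSLCen) (hSLOrd : PkgSLOrd)
    (hRes : PkgRes.{u}) (hPsi : PkgPsi.{u}) (hCen : PkgCen.{u}) (hCop : PkgCop.{u})
    (hCompl : PkgCompl.{u}) (hIdx : PkgIdx.{u}) (hGlue : PkgGlue.{u})
    (hZofC2 : PkgZofC2.{u}) (hC2Small : PkgC2Small.{u})
    {G : Type u} [Group G] [Finite G] (hns : ¬ Group.IsSolvable G)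
    (hFC : ∃ (L : Type) (_ : Group L) (_ : Finite L) (H : Subgroup L),
      Cfsg.IsFrobeniusComplement H ∧ Nonempty (G ≃* H)) :
    ∃ G₀ : Subgroup G, G₀.Normal ∧ (G₀.index = 1 ∨ G₀.index = 2) ∧
      ∃ S M : Subgroup G, S ⊔ M = G₀ ∧ S ⊓ M = ⊥ ∧ (∀ s ∈ S, ∀ x ∈ M, s * x = x * s) ∧
        Nonempty (S ≃* Matrix.SpecialLinearGroup (Fin 2) (ZMod 5)) ∧
        (∀ (p : ℕ) [Fact p.Prime] (P : Sylow p M), IsCyclic P) ∧ (Nat.card M).Coprime 30 := by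
  obtain ⟨S, ψ, hSn, he, hker, himg, hcen, hcop, h4⟩ :=
    nonsolv_core hub hFInv hFComm hFPerf hSLA5 hSLCen hSLOrd hRes hPsi hCen hCop hns hFC
  obtain ⟨M, hMC, hMo, hMi⟩ := hCompl ψ.ker h4
  obtain ⟨hsup, hinf⟩ := hGlue S ψ.ker M hcen hMC hMo hMi
  obtain ⟨hidx, -⟩ := hIdx S ψ himg
  have := hSn
  refine ⟨S ⊔ ψ.ker, inferInstance, hidx, S, M, hsup, hinf, ?_, he, ?_, ?_⟩
  · intro s hs x hx
    have hx' : x ∈ Subgroup.centralizer (S : Set G) := hker ▸ hMC hx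
    exact Subgroup.mem_centralizer_iff.mp hx' s hs
  · have h4M : ¬ 4 ∣ Nat.card M := by
      intro h
      have h2 : 2 ∣ Nat.card M := Dvd.dvd.trans (by norm_num) h
      have h1 : (2 : ℕ) ∣ 1 := by
        have := Nat.dvd_gcd h2 (dvd_refl 2)
        rwa [Nat.Coprime.gcd_eq_one hMo] at this
      omega
    exact hZofC2 M (hFSyl hFC) (hC2Small M h4M)
  · have hdvd : Nat.card M ∣ Nat.card ↥ψ.ker := Subgroup.card_dvd_of_le hMC
    have h15 : (Nat.card M).Coprime 15 := Nat.Coprime.coprime_dvd_left hdvd hcop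
    have : (30 : ℕ) = 2 * 15 := by norm_num
    rw [this]
    exact Nat.Coprime.mul_right hMo h15

/-- Existence part of S4291. -/
theorem s4291_exists (hub : HubZ)
    (hFSyl : PkgFSyl.{u}) (hFInv : PkgFInv.{u}) (hFComm : PkgFComm.{u}) (hFPerf : PkgFPerf.{u})
    (hSLA5 : PkgSLA5) (hSLCen : PkgSLCen) (hSLOrd : PkgSLOrd)
    (hRes : PkgRes.{u}) (hPsi : PkgPsi.{u}) (hCen : PkgCen.{u}) (hCop : PkgCop.{u})
    (hIdx : PkgIdx.{u}) (hZofC2 : PkgZofC2.{u}) (hC2Small : PkgC2Small.{u})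
    (hC2Top : PkgC2Top.{u}) (hRange : PkgRange.{u})
    (hSolvBar : SolvBar.{u}) (hSolvLift : PkgSolvLift.{u})
    {G : Type u} [Group G] [Finite G] (hFC : IsFC G) :
    ∃ N : Subgroup G, N.Normal ∧ ZSyl N ∧ Quot N := by
  by_cases hc2 : C2 G
  · exact ⟨⊤, inferInstance, hZofC2 ⊤ (hFSyl hFC) (hC2Top.mp hc2), Or.inl rfl⟩
  · have hT : ∃ T : Sylow 2 G, ¬ IsCyclic (T : Subgroup G) := by
      unfold C2 at hc2
      push Not at hc2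
      exact hc2
    by_cases hsol : Group.IsSolvable G
    · exact hSolvLift hSolvBar (hFSyl hFC) hsol hT
    · obtain ⟨S, ψ, hSn, he, hker, himg, hcen, hcop, h4⟩ :=
        nonsolv_core hub hFInv hFComm hFPerf hSLA5 hSLCen hSLOrd hRes hPsi hCen hCop hsol hFC
      obtain ⟨-, hrange⟩ := hIdx S ψ himg
      exact ⟨ψ.ker, inferInstance, hZofC2 ψ.ker (hFSyl hFC) (hC2Small ψ.ker h4),
        hRange ψ hrange⟩

/-- A quotient map onto a group of type `NZ`, or onto the four-group. -/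
theorem quot_cases (hA4 : PkgNZA4) (hS4 : PkgNZS4) (hA5 : PkgNZA5) (hS5 : PkgNZS5)
    {G : Type u} [Group G] (N : Subgroup G) (hQ : Quot N) (hN : N ≠ ⊤) :
    (∃ f : G →* DihedralGroup 2, Function.Surjective f ∧ f.ker = N) ∨
    (∃ (X : Type) (_ : Group X) (f : G →* X), Function.Surjective f ∧ f.ker = N ∧ NZ X) := by
  rcases hQ with h | h | ⟨f, hf, hk⟩ | ⟨f, hf, hk⟩ | ⟨f, hf, hk⟩ | ⟨f, hf, hk⟩
  · exact absurd h hN
  · exact Or.inl h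
  · exact Or.inr ⟨_, _, f, hf, hk, hA4⟩
  · exact Or.inr ⟨_, _, f, hf, hk, hS4⟩
  · exact Or.inr ⟨_, _, f, hf, hk, hA5⟩
  · exact Or.inr ⟨_, _, f, hf, hk, hS5⟩

/-- Uniqueness part of S4291. -/
theorem s4291_unique (hFSyl : PkgFSyl.{u})
    (hC2Top : PkgC2Top.{u})
    (hA4 : PkgNZA4) (hS4 : PkgNZS4) (hA5 : PkgNZA5) (hS5 : PkgNZS5) (hD2 : PkgUD2)
    (hSylImg : PkgUSylImg.{u}) (hLe : PkgULe.{u}) (hDNZ : PkgUDNZ.{u})
    (hGen2 : PkgUGen2.{u}) (hDD : PkgUDD.{u})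
    {G : Type u} [Group G] [Finite G] (hFC : IsFC G)
    (N₁ N₂ : Subgroup G) (h1n : N₁.Normal) (h2n : N₂.Normal) (h1z : ZSyl N₁) (h2z : ZSyl N₂)
    (h1q : Quot N₁) (h2q : Quot N₂) : N₁ = N₂ := by
  have : Fact (Nat.Prime 2) := ⟨Nat.prime_two⟩
  have hC2of : ∀ N : Subgroup G, ZSyl N → C2 N := fun N hN P => hN 2 P
  by_cases hc2 : C2 G
  · -- cyclic Sylow 2-subgroups: both are `⊤`
    have key : ∀ N : Subgroup G, Quot N → N = ⊤ := by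
      intro N hQ
      by_contra hN
      rcases quot_cases hA4 hS4 hA5 hS5 N hQ hN with ⟨f, hf, -⟩ | ⟨X, _, f, hf, -, hX⟩
      · exact hD2 (hSylImg f hf hc2)
      · exact hX.2.2 (hSylImg f hf hc2)
    rw [key N₁ h1q, key N₂ h2q]
  · have hT : ∃ T : Sylow 2 G, ¬ IsCyclic (T : Subgroup G) := by
      unfold C2 at hc2
      push Not at hc2
      exact hc2
    obtain ⟨T, hTc⟩ := hT
    have hTq : ∃ T : Sylow 2 G, ∃ n : ℕ, Nonempty ((T : Subgroup G) ≃* QuaternionGroup (2 ^ n)) := by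
      rcases hFSyl hFC 2 T with h | h
      · exact absurd h hTc
      · exact ⟨T, h⟩
    have hne : ∀ N : Subgroup G, ZSyl N → N ≠ ⊤ := by
      intro N hN h
      subst h
      exact hc2 (hC2Top.mpr (hC2of _ hN))
    rcases quot_cases hA4 hS4 hA5 hS5 N₁ h1q (hne N₁ h1z) with
      ⟨f₁, hf₁, hk₁⟩ | ⟨X₁, _, f₁, hf₁, hk₁, hX₁⟩
    · rcases quot_cases hA4 hS4 hA5 hS5 N₂ h2q (hne N₂ h2z) with
        ⟨f₂, hf₂, hk₂⟩ | ⟨X₂, _, f₂, hf₂, hk₂, hX₂⟩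
      · rw [← hk₁, ← hk₂]
        exact hDD hGen2 hTq f₁ f₂ hf₁ hf₂
      · exfalso
        have hle : N₁ ≤ f₂.ker := hLe f₂ hf₂ hX₂.1 N₁ h1n (hC2of _ h1z)
        obtain ⟨a, b, hab⟩ := hX₂.2.1
        exact hab (hDNZ f₁ f₂ hf₂ (hk₁ ▸ hle) a b)
    · rcases quot_cases hA4 hS4 hA5 hS5 N₂ h2q (hne N₂ h2z) with
        ⟨f₂, hf₂, hk₂⟩ | ⟨X₂, _, f₂, hf₂, hk₂, hX₂⟩
      · exfalso
        have hle : N₂ ≤ f₁.ker := hLe f₁ hf₁ hX₁.1 N₂ h2n (hC2of _ h2z)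
        obtain ⟨a, b, hab⟩ := hX₁.2.1
        exact hab (hDNZ f₂ f₁ hf₁ (hk₂ ▸ hle) a b)
      · have h21 : N₂ ≤ N₁ := hk₁ ▸ hLe f₁ hf₁ hX₁.1 N₂ h2n (hC2of _ h2z)
        have h12 : N₁ ≤ N₂ := hk₂ ▸ hLe f₂ hf₂ hX₂.1 N₁ h1n (hC2of _ h1z)
        exact le_antisymm h12 h21

/-- **S4291** from the packages. -/
theorem s4291_of (hub : HubZ)
    (hFSyl : PkgFSyl.{u}) (hFInv : PkgFInv.{u}) (hFComm : PkgFComm.{u}) (hFPerf : PkgFPerf.{u})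
    (hSLA5 : PkgSLA5) (hSLCen : PkgSLCen) (hSLOrd : PkgSLOrd)
    (hRes : PkgRes.{u}) (hPsi : PkgPsi.{u}) (hCen : PkgCen.{u}) (hCop : PkgCop.{u})
    (hIdx : PkgIdx.{u}) (hZofC2 : PkgZofC2.{u}) (hC2Small : PkgC2Small.{u})
    (hC2Top : PkgC2Top.{u}) (hRange : PkgRange.{u})
    (hSolvBar : SolvBar.{u}) (hSolvLift : PkgSolvLift.{u})
    (hA4 : PkgNZA4) (hS4 : PkgNZS4) (hA5 : PkgNZA5) (hS5 : PkgNZS5) (hD2 : PkgUD2)
    (hSylImg : PkgUSylImg.{u}) (hLe : PkgULe.{u}) (hDNZ : PkgUDNZ.{u})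
    (hGen2 : PkgUGen2.{u}) (hDD : PkgUDD.{u})
    {G : Type u} [Group G] [Finite G]
    (hFC : (∃ (L : Type) (_ : Group L) (_ : Finite L) (H : Subgroup L),
      Cfsg.IsFrobeniusComplement H ∧ Nonempty (G ≃* H))) :
    ∃! N : Subgroup G, N.Normal ∧ (∀ (p : ℕ) [Fact p.Prime] (P : Sylow p N), IsCyclic P) ∧
      (N = ⊤ ∨
        (∃ f : G →* DihedralGroup 2, Function.Surjective f ∧ f.ker = N) ∨
        (∃ f : G →* alternatingGroup (Fin 4), Function.Surjective f ∧ f.ker = N) ∨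
        (∃ f : G →* Equiv.Perm (Fin 4), Function.Surjective f ∧ f.ker = N) ∨
        (∃ f : G →* alternatingGroup (Fin 5), Function.Surjective f ∧ f.ker = N) ∨
        (∃ f : G →* Equiv.Perm (Fin 5), Function.Surjective f ∧ f.ker = N)) := by
  obtain ⟨N, hNn, hNz, hNq⟩ := s4291_exists hub hFSyl hFInv hFComm hFPerf hSLA5 hSLCen hSLOrd
    hRes hPsi hCen hCop hIdx hZofC2 hC2Small hC2Top hRange hSolvBar hSolvLift hFC
  refine ⟨N, ⟨hNn, hNz, hNq⟩, ?_⟩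
  rintro N' ⟨hn', hz', hq'⟩
  exact s4291_unique hFSyl hC2Top hA4 hS4 hA5 hS5 hD2 hSylImg hLe hDNZ hGen2 hDD hFC
    N' N hn' hNn hz' hNz hq' hNq

end Cfsg.Agent.Lib.Helper81.FCZ
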