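import Mathlib
import Cfsg.Agent.Lib.Helper81.FCZ.Defs

/-!
# Project FCZ: the packages [RANGE], [U-D2], [C2-TOP]
-/

set_option autoImplicit false

namespace Cfsg.Agent.Lib.Helper81.FCZ

universe u v

/-- **[RANGE]** -/
theorem pkgRange : PkgRange.{u} := by
  intro G _ ψ h
  rcases h with h | h
  · refine Or.inr (Or.inr (Or.inr (Or.inr (Or.inl ?_))))
    refine ⟨ψ.codRestrict (alternatingGroup (Fin 5)) (fun g => by rw [← h]; exact ⟨g, rfl⟩),
      ?_, ?_⟩
    · intro y
      have hy : (y : Equiv.Perm (Fin 5)) ∈ ψ.range := by rw [h]; exact y.2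
      obtain ⟨g, hg⟩ := hy
      exact ⟨g, Subtype.ext hg⟩
    · exact MonoidHom.ker_codRestrict _ _ _
  · exact Or.inr (Or.inr (Or.inr (Or.inr (Or.inr ⟨ψ, MonoidHom.range_eq_top.mp h, rfl⟩))))

theorem d2_sq : ∀ x : DihedralGroup 2, x * x = 1 := by decide

/-- **[U-D2]** -/
theorem pkgUD2 : PkgUD2 := by
  intro h
  have : Fact (Nat.Prime 2) := ⟨Nat.prime_two⟩
  obtain ⟨P⟩ : Nonempty (Sylow 2 (DihedralGroup 2)) := inferInstance
  have hc : IsCyclic (P : Subgroup (DihedralGroup 2)) := h P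
  have hcard : Nat.card (P : Subgroup (DihedralGroup 2)) = 4 := by
    rw [Sylow.card_eq_multiplicity, DihedralGroup.nat_card]
    have h4 : (2 * 2 : ℕ) = 2 ^ 2 := by norm_num
    rw [h4, Nat.Prime.factorization_pow Nat.prime_two]
    simp
  obtain ⟨g, hg⟩ := hc.exists_generator
  have ho : orderOf g = 4 := by
    rw [orderOf_eq_card_of_forall_mem_zpowers hg, hcard]
  have h2 : g ^ 2 = 1 := by
    apply Subtype.ext
    rw [pow_two]
    exact d2_sq (g : DihedralGroup 2)
  have hdvd : orderOf g ∣ 2 := orderOf_dvd_of_pow_eq_one h2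
  rw [ho] at hdvd
  omega

/-- cyclic Sylow 2-subgroups are invariant under isomorphism -/
theorem c2_of_equiv {A : Type u} {B : Type v} [Group A] [Group B] [Finite A] (e : A ≃* B)
    (h : C2 A) : C2 B := by
  intro P
  have : Fact (Nat.Prime 2) := ⟨Nat.prime_two⟩
  obtain ⟨φ, hφ⟩ : ∃ φ : A →* B, ∀ a, φ a = e a := ⟨e.toMonoidHom, fun _ => rfl⟩
  have hinj : Function.Injective φ := by
    intro a b hab
    rw [hφ, hφ] at hab
    exact e.injective hab
  have hsurj : Function.Surjective φ := by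
    intro b
    exact ⟨e.symm b, by rw [hφ]; simp⟩
  have hr : (P : Subgroup B) ≤ φ.range := by
    rw [MonoidHom.range_eq_top.mpr hsurj]; exact le_top
  have hQ : IsCyclic ((P.comapOfInjective φ hinj hr : Sylow 2 A) : Subgroup A) := h _
  rw [Sylow.coe_comapOfInjective] at hQ
  have hmap : ((P : Subgroup B).comap φ).map φ = (P : Subgroup B) :=
    Subgroup.map_comap_eq_self_of_surjective hsurj _
  have h2 : IsCyclic (((P : Subgroup B).comap φ).map φ) :=
    isCyclic_of_surjective (((P : Subgroup B).comap φ).equivMapOfInjective φ hinj)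
      (((P : Subgroup B).comap φ).equivMapOfInjective φ hinj).surjective
  rw [hmap] at h2
  exact h2

/-- **[C2-TOP]** -/
theorem pkgC2Top : PkgC2Top.{u} := by
  intro G _ _
  constructor
  · intro h
    exact c2_of_equiv (Subgroup.topEquiv (G := G)).symm h
  · intro h
    exact c2_of_equiv (Subgroup.topEquiv (G := G)) h

end Cfsg.Agent.Lib.Helper81.FCZ
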